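import Cfsg.Agent.H35.Fi24T.Y5V2.RChk0

set_option autoImplicit false
set_option linter.all false

namespace Cfsg.Agent.H35

open Cfsg.Spor

theorem y5v2_rall : ∀ p, p < 149 → y5v2_rf p = true := by
  apply allR_blocks y5v2_rf 149 8 1 _ (by decide)
  intro k hk
  interval_cases k
  · exact y5v2_rchk_0

theorem y5v2_circ_ok : circChk (fullW y5v2_rws y5v2_prels) y5v2_circT 0 y5v2_ccert = true := by decide +kernel
theorem y5v2_hc_ok : allR (fun c => hcChk y5v2_rsw y5v2_hc1T y5v2_hc2T c) 8 3 0 = true := by decide +kernel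
theorem y5v2_h0 : RData.aord (y5v2_rd.ent 0 1) = 0 := by decide +kernel

end Cfsg.Agent.H35
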